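-- helper96: project CS3 (S4284), part [END], package [ORB].
import Mathlib
import Cfsg.Agent.Lib.Helper79.CS3.EndDefs

set_option autoImplicit false

namespace Cfsg.Agent.Lib.Helper96.CS3

open Cfsg.Agent.Lib.Helper79.CS3

universe u

/-- [ORB] `P` acts by conjugation on `Q ∖ {1}` with all point stabilizers equal to `A ⊓ P`:
`|P : A ⊓ P|` divides `|Q| - 1`. -/
theorem pkgOrb : PkgOrb.{u} := by
  intro G _ _ Q P A hQ h
  classical
  let X : Set G := {y | y ∈ Q ∧ y ≠ 1}
  let _ : MulAction P X :=
    { smul := fun g y => ⟨(g : G) * y * (g : G)⁻¹, hQ.conj_mem _ y.2.1 _, fun h1 => y.2.2 (by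
          have h2 := congrArg (fun z => (g : G)⁻¹ * z * (g : G)) h1
          simpa [mul_assoc] using h2)⟩
      one_smul := fun y => Subtype.ext (by
        show ((1 : P) : G) * y * ((1 : P) : G)⁻¹ = y
        simp)
      mul_smul := fun a b y => Subtype.ext (by
        show ((a * b : P) : G) * y * ((a * b : P) : G)⁻¹ =
          (a : G) * ((b : G) * y * (b : G)⁻¹) * (a : G)⁻¹
        simp [mul_assoc]) }
  have hsmul : ∀ (g : P) (x : X), ((g • x : X) : G) = (g : G) * x * (g : G)⁻¹ := fun _ _ => rfl
  have hstab : ∀ x : X, MulAction.stabilizer P x = A.subgroupOf P := by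
    intro x
    ext g
    rw [MulAction.mem_stabilizer_iff, Subgroup.mem_subgroupOf, ← h x.1 x.2.1 x.2.2 g g.2]
    constructor
    · intro hx
      have h1 : (g : G) * x * (g : G)⁻¹ = x := by rw [← hsmul, hx]
      calc (g : G) * x = (g : G) * x * (g : G)⁻¹ * g := by group
        _ = x * g := by rw [h1]
    · intro hx
      apply Subtype.ext
      rw [hsmul, hx]
      group
  have hcard : Nat.card X = Nat.card Q - 1 := by
    have h1 : X = (Q : Set G) \ {1} := by
      ext y
      simp [X]
    rw [Nat.card_coe_set_eq, h1, Set.ncard_sdiff_singleton_of_mem Q.one_mem]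
    rfl
  rw [← hcard]
  have : Fintype (MulAction.orbitRel.Quotient P X) := Fintype.ofFinite _
  rw [Nat.card_congr (MulAction.selfEquivSigmaOrbits' P X), Nat.card_sigma]
  apply Finset.dvd_sum
  intro ω _
  induction ω using Quotient.inductionOn' with
  | h x =>
    rw [MulAction.orbitRel.Quotient.orbit_mk, Nat.card_coe_set_eq, ← MulAction.index_stabilizer,
      hstab x]
    exact dvd_rfl

end Cfsg.Agent.Lib.Helper96.CS3
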