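-- helper96: project CS3 (S4284), part [END], package [PCEN].
import Mathlib
import Cfsg.Agent.Lib.Helper79.CS3.EndDefs
import Cfsg.Agent.Lib.Helper53.PGroups

set_option autoImplicit false

namespace Cfsg.Agent.Lib.Helper96.CS3

open Cfsg.Agent.Lib.Helper79.CS3

universe u

/-- [PCEN] `P` a `p`-subgroup, `N ≤ P` normalized by `P` and not central in `P`: some `a ∈ N` is
not central in `P`, but central modulo `Z(P)` with `a ^ p ∈ Z(P)`. -/
theorem pkgPCen : PkgPCen.{u} := by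
  intro G _ _ p P N hp hP hNP hnorm hnc
  classical
  have : Fact p.Prime := ⟨hp⟩
  let N' : Subgroup P := N.subgroupOf P
  have hN' : N'.Normal := ⟨fun x hx g => by
    have h1 : (x : G) ∈ N := Subgroup.mem_subgroupOf.1 hx
    exact Subgroup.mem_subgroupOf.2 (by simpa using hnorm g g.2 x h1)⟩
  let π : P →* P ⧸ Subgroup.center P := QuotientGroup.mk' (Subgroup.center P)
  have hπ : Function.Surjective π := QuotientGroup.mk'_surjective _
  have hR : IsPGroup p (P ⧸ Subgroup.center P) := hP.to_quotient _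
  have hNn : (N'.map π).Normal := hN'.map π hπ
  have hNne : N'.map π ≠ ⊥ := by
    intro hbot
    obtain ⟨x, hx, g, hg, hxg⟩ := hnc
    have h1 : π ⟨x, hNP hx⟩ ∈ N'.map π :=
      Subgroup.mem_map_of_mem π (Subgroup.mem_subgroupOf.2 hx)
    rw [hbot, Subgroup.mem_bot] at h1
    have h2 : (⟨x, hNP hx⟩ : P) ∈ Subgroup.center P := (QuotientGroup.eq_one_iff _).1 h1
    have h3 := Subgroup.mem_center_iff.1 h2 ⟨g, hg⟩
    exact hxg (congrArg Subtype.val h3).symm
  obtain ⟨z, hzN, hz1, hzc⟩ :=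
    Cfsg.Agent.Lib.Helper53.exists_mem_center_of_normal_of_ne_bot hR (N'.map π) hNne
  obtain ⟨k, hk⟩ := (IsPGroup.iff_orderOf.1 hR) z
  have hk0 : k ≠ 0 := by
    rintro rfl
    rw [pow_zero, orderOf_eq_one_iff] at hk
    exact hz1 hk
  have hc1 : z ^ (p ^ (k - 1)) ≠ 1 := by
    intro h1
    have h2 := orderOf_dvd_of_pow_eq_one h1
    rw [hk] at h2
    have h3 := (Nat.pow_dvd_pow_iff_le_right hp.one_lt).1 h2
    omega
  have hcp : (z ^ (p ^ (k - 1))) ^ p = 1 := by
    rw [← pow_mul, ← pow_succ, show k - 1 + 1 = k by omega, ← hk, pow_orderOf_eq_one]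
  have hcN : z ^ (p ^ (k - 1)) ∈ N'.map π := Subgroup.pow_mem _ hzN _
  have hcc : z ^ (p ^ (k - 1)) ∈ Subgroup.center (P ⧸ Subgroup.center P) :=
    Subgroup.pow_mem _ hzc _
  obtain ⟨a, haN, hac⟩ := Subgroup.mem_map.1 hcN
  refine ⟨(a : G), Subgroup.mem_subgroupOf.1 haN, ?_, ?_, ?_⟩
  · by_contra hall
    push Not at hall
    apply hc1
    rw [← hac]
    apply (QuotientGroup.eq_one_iff _).2
    rw [Subgroup.mem_center_iff]
    intro g
    exact Subtype.ext (hall g g.2).symm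
  · intro g hg h hh
    have h1 : π (a * ⟨g, hg⟩ * a⁻¹ * (⟨g, hg⟩ : P)⁻¹) = 1 := by
      simp only [map_mul, map_inv, hac]
      have h2 := Subgroup.mem_center_iff.1 hcc (π ⟨g, hg⟩)
      rw [← h2]
      group
    have h3 : a * ⟨g, hg⟩ * a⁻¹ * (⟨g, hg⟩ : P)⁻¹ ∈ Subgroup.center P :=
      (QuotientGroup.eq_one_iff _).1 h1
    have h4 := Subgroup.mem_center_iff.1 h3 ⟨h, hh⟩
    exact (congrArg Subtype.val h4).symm
  · intro h hh
    have h1 : π (a ^ p) = 1 := by rw [map_pow, hac, hcp]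
    have h3 : a ^ p ∈ Subgroup.center P := (QuotientGroup.eq_one_iff _).1 h1
    have h4 := Subgroup.mem_center_iff.1 h3 ⟨h, hh⟩
    exact (congrArg Subtype.val h4).symm

end Cfsg.Agent.Lib.Helper96.CS3
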